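import Cfsg.Agent.Sw5.Mono
import Cfsg.Agent.Small.StAut
import Cfsg.Agent.Small.MPerm

/-! The ternary Golay code. -/

set_option autoImplicit false
set_option maxRecDepth 100000
set_option synthInstance.maxSize 2000

namespace CF.Sw5

open Cfsg Finset
open scoped Pointwise

abbrev Z3 := ZMod 3
abbrev T6 := Z3 × Z3 × Z3 × Z3 × Z3 × Z3

/-- the code word with given information symbols -/
def cw (t : T6) (p : ArrayPt) : Z3 :=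
  match t with
  | (a, b, c, d, e, f) => ![![a, b, c], ![d, e, a + b + c - d - e], ![f, c - b - d + e + f, a - b + d - e + f],
      ![a - b - c - d - f, a + c + d + e - f, c - a - b - e - f]] p.1 p.2

def inf (x : ArrayPt → Z3) : T6 := (x (0, 0), x (0, 1), x (0, 2), x (1, 0), x (1, 1), x (2, 0))

theorem mem_tg {x : ArrayPt → Z3} : x ∈ ternaryGolayCode ↔ ∃ s : Z3, (∀ i : Fin 4, ∑ r : Z3, x (i, r) = -s) ∧
    ∀ a b : Z3, ∑ i : Fin 4, x (i, (a • ![0, 1, 1, 1] + b • ![1, 0, 1, 2] : Fin 4 → Z3) i) = s := by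
  refine exists_congr fun s => and_congr_right fun _ => ⟨fun h a b => h _ (Submodule.mem_span_pair.2
    ⟨a, b, rfl⟩), fun h t ht => ?_⟩
  obtain ⟨a, b, rfl⟩ := Submodule.mem_span_pair.1 ht
  exact h a b

theorem cw_mem (t : T6) : cw t ∈ ternaryGolayCode := by
  rw [mem_tg]; revert t; decide +kernel

theorem inf_cw (t : T6) : inf (cw t) = t := rfl

theorem cw_inj : Function.Injective cw := Function.LeftInverse.injective inf_cw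

theorem mem_iff {x : ArrayPt → Z3} : x ∈ ternaryGolayCode ↔ ∀ p, x p = cw (inf x) p := by
  refine ⟨fun h => ?_, fun h => funext h ▸ cw_mem _⟩
  have k := sub_mem h (cw_mem (inf x))
  have e : x - cw (inf x) = fun p => ![![0, 0, 0], ![0, 0, (x - cw (inf x)) (1, 2)],
      ![0, (x - cw (inf x)) (2, 1), (x - cw (inf x)) (2, 2)], ![(x - cw (inf x)) (3, 0),
      (x - cw (inf x)) (3, 1), (x - cw (inf x)) (3, 2)]] p.1 p.2 := by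
    ext ⟨i, r⟩
    fin_cases i <;> fin_cases r <;> first | rfl | exact sub_self _
  rw [e, mem_tg] at k
  have := (by decide +kernel : ∀ a b c d e f : Z3, (∃ s : Z3, (∀ i : Fin 4, ∑ r : Z3,
    ![![0, 0, 0], ![0, 0, a], ![0, b, c], ![d, e, f]] i r = -s) ∧ ∀ u v : Z3, ∑ i : Fin 4,
    ![![0, 0, 0], ![0, 0, a], ![0, b, c], ![d, e, f]] i
      ((u • ![0, 1, 1, 1] + v • ![1, 0, 1, 2] : Fin 4 → Z3) i) = s) →
    ∀ p : ArrayPt, ![![0, 0, 0], ![0, 0, a], ![0, b, c], ![d, e, f]] p.1 p.2 = 0) _ _ _ _ _ _ k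
  exact fun p => sub_eq_zero.1 ((congrFun e p).trans (this p))

theorem mem_iff' {x : ArrayPt → Z3} : x ∈ ternaryGolayCode ↔ ∃ t, cw t = x :=
  ⟨fun h => ⟨_, (funext (mem_iff.1 h)).symm⟩, fun ⟨t, e⟩ => e ▸ cw_mem t⟩

theorem ncard_tg (P : (ArrayPt → Z3) → Prop) [DecidablePred fun t => P (cw t)] :
    {x | x ∈ ternaryGolayCode ∧ P x}.ncard = (univ.filter fun t => P (cw t)).card := by
  rw [← Set.ncard_coe_finset, ← Set.ncard_image_of_injective _ cw_inj]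
  congr 1; ext x
  simp only [mem_iff', Set.mem_ofPred_eq, coe_filter, mem_univ, true_and, Set.mem_image]
  exact ⟨fun ⟨⟨t, e⟩, h⟩ => ⟨t, e ▸ h, e⟩, fun ⟨t, h, e⟩ => ⟨⟨t, e⟩, e ▸ h⟩⟩

theorem diag {c : ArrayPt → Z3ˣ} (h : Pres ternaryGolayCode 1 c) : (∀ p, c p = 1) ∨ ∀ p, c p = -1 := by
  have k : ∀ t q, (∀ r ∈ [(0, 0), (0, 1), (0, 2), (1, 0), (1, 1), (2, 0)], r = q ∨ cw t r = 0) →
      ∀ p, cw t p ≠ 0 → (c p : Z3) = c q := fun t q hq p hp => by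
    have z : ∀ r, r = q ∨ cw t r = 0 → (monomialMap 1 c (cw t) - (c q : Z3) • cw t) r = 0 := fun r hr =>
      show c r * cw t r - c q * cw t r = 0 by rcases hr with rfl | e <;> simp [*]
    have := mem_iff.1 (sub_mem (h _ (cw_mem t)) (Submodule.smul_mem _ (c q : Z3) (cw_mem t))) p
    simp only [List.forall_mem_cons] at hq
    obtain ⟨a1, a2, a3, a4, a5, a6, -⟩ := hq
    rw [inf, z _ a1, z _ a2, z _ a3, z _ a4, z _ a5, z _ a6,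
      (by decide +kernel : ∀ p, cw (0, 0, 0, 0, 0, 0) p = 0)] at this
    exact mul_right_cancel₀ hp (sub_eq_zero.1 this)
  have e : ∀ p, (c p : Z3) = c (2, 2) := fun p => by
    obtain ⟨p', ⟨t, -, q, a1, a2, a3⟩, u, -, r, a4, a5, a6⟩ := (by decide +kernel : ∀ p, ∃ p', ∀ x ∈ [p, (2, 2)],
      ∃ t ∈ [(1, 0, 0, 0, 0, 0), (0, 1, 0, 0, 0, 0), (0, 0, 1, 0, 0, 0), (0, 0, 0, 1, 0, 0),
        (0, 0, 0, 0, 1, 0), (0, 0, 0, 0, 0, 1)], ∃ q, (∀ r ∈ [(0, 0), (0, 1), (0, 2), (1, 0), (1, 1), (2, 0)],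
        r = q ∨ cw t r = 0) ∧ cw t x ≠ 0 ∧ cw t p' ≠ 0) p |>.imp fun _ h =>
      And.intro (h p (by simp)) (h (2, 2) (by simp))
    rw [k t q a1 _ a2, k u r a4 _ a5, ← k t q a1 _ a3, k u r a4 _ a6]
  rcases (by decide : ∀ u : Z3ˣ, u = 1 ∨ u = -1) (c (2, 2)) with q | q
  · exact .inl fun p => Units.ext (q ▸ e p)
  · exact .inr fun p => Units.ext (q ▸ e p)

def dec (n : ℕ) : ArrayPt := (Fin.ofNat 4 (n / 3), (n : Z3))
def fn (l : List ℕ) (p : ArrayPt) : ArrayPt := dec (l.getD (3 * p.1 + p.2.val) 0)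
def sg (l : List ℕ) (p : ArrayPt) : Z3ˣ := if l.getD (3 * p.1 + p.2.val) 0 = 1 then 1 else -1

def g0 : Equiv.Perm ArrayPt := ⟨fn [8, 9, 2, 1, 4, 0, 10, 3, 11, 5, 6, 7],
  fn [5, 3, 2, 7, 4, 9, 10, 11, 0, 1, 6, 8], by decide +kernel, by decide +kernel⟩
def g1 : Equiv.Perm ArrayPt := ⟨fn [0, 10, 1, 9, 11, 2, 8, 4, 5, 7, 3, 6],
  fn [0, 2, 5, 10, 7, 8, 11, 9, 6, 3, 1, 4], by decide +kernel, by decide +kernel⟩

theorem g_mem : g0 ∈ PP ternaryGolayCode ∧ g1 ∈ PP ternaryGolayCode := by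
  refine ⟨⟨sg [1, 2, 2, 1, 1, 1, 1, 2, 2, 2, 2, 1], fun x hx => ?_⟩,
    ⟨sg [1, 1, 2, 1, 2, 2, 2, 2, 1, 1, 2, 1], fun x hx => ?_⟩⟩ <;>
  · obtain ⟨t, rfl⟩ := mem_iff'.1 hx
    rw [mem_iff]; clear hx; revert t; decide +kernel

def WS : List (List ℕ) := [[], [1], [0], [1, 0], [0, 0], [1, 1], [1, 1, 0], [0, 0, 0], [1, 0, 0], [1, 1, 1], [1, 0, 0, 0], [0, 1, 0, 1], [1, 1, 1, 1], [0, 1, 0, 0], [1, 1, 1, 0], [0, 0, 0, 0], [1, 1, 1, 1, 1], [0, 1, 1, 1, 0], [0, 1, 0, 1, 1], [1, 0, 1, 0, 1, 1], [0, 1, 0, 1, 1, 1], [0, 0, 0, 1, 1, 1, 0], [1, 0, 1, 0, 1, 1, 1], [0, 1, 0, 1, 1, 1, 1], [0, 1, 0, 0, 1, 0, 1, 1], [0, 0, 0, 1, 0, 1, 1, 0], [0, 1, 0, 0, 1, 0, 0, 1, 0], [1, 0, 0, 0, 1, 1, 1, 0, 1], [1, 1, 1, 1, 0, 1, 0, 1, 1], [1, 1, 1, 1, 1, 0, 1, 0, 1], [1, 1, 0, 1, 0, 1, 1, 0, 1, 0], [1, 1, 1, 1, 0, 1, 1, 1, 0, 0], [0, 0, 0, 0, 1, 1, 1, 0, 1, 1, 0], [0, 0,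 1, 1, 0, 1, 0, 0, 0, 1, 0], [0, 1, 0, 0, 1, 1, 0, 0, 1, 0, 0], [1, 0, 0, 1, 0, 1, 1, 0, 0, 0, 0, 1], [1, 1, 0, 1, 1, 1, 0, 0, 1, 1, 1, 1], [0, 1, 1, 1, 0, 0, 0, 1, 0, 1, 1, 1], [0, 0, 0, 0, 1, 1, 1, 0, 0, 0, 1, 1, 0], [0, 1, 0, 0, 0, 1, 0, 0, 1, 1, 0, 0, 0], [0, 0, 0, 1, 0, 0, 0, 1, 1, 1, 1, 0, 0, 1], [1, 0, 0, 0, 0, 0, 1, 1, 1, 1, 1, 1, 1, 0], [1, 0, 1, 1, 0, 1, 0, 1, 1, 0, 0, 0, 0, 0, 1], [1, 0, 0, 1, 0, 0, 0, 1, 0, 1, 1, 0, 0, 1, 1, 0], [1, 0, 0, 1, 1, 1, 1, 1, 1, 0, 1, 1, 1, 1, 1, 1], [0, 1, 1, 1, 0, 1, 1, 0, 0, 0, 1, 0, 1, 1, 1, 1]]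

theorem multi5 : MulAction.IsMultiplyPretransitive (PP ternaryGolayCode) ArrayPt 5 :=
  isMulti_of_base (b := dec) fun k hk x hx => by
    obtain ⟨w, -, e⟩ := (by decide +kernel : ∀ k < 5, ∀ x, (∀ i < k, x ≠ dec i) → ∃ w ∈ WS,
      (∀ i < k, wd g0 g1 w (dec i) = dec i) ∧ wd g0 g1 w (dec k) = x) k hk x hx
    exact ⟨_, wd_mem g_mem.1 g_mem.2 w, e⟩

/-- the hexads -/
abbrev Hex : Set (Finset ArrayPt) := {h | ∃ x ∈ ternaryGolayCode, ternarySupport x = h ∧ h.card = 6}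

theorem smul_hex {σ : Equiv.Perm ArrayPt} (hσ : σ ∈ PP ternaryGolayCode) {h : Finset ArrayPt}
    (hh : h ∈ Hex) : σ • h ∈ Hex := by
  obtain ⟨c, hc⟩ := hσ
  obtain ⟨x, hx, rfl, e⟩ := hh
  refine ⟨_, hc x hx, ?_, by rwa [card_smul_finset]⟩
  ext p
  simp [ternarySupport, monomialMap, ← inv_smul_mem_iff, Equiv.Perm.inv_def]

theorem PP_le : PP ternaryGolayCode ≤ setSystemAut Hex := fun σ hσ =>
  Set.ext fun h => ⟨fun ⟨_, a, b⟩ => b ▸ smul_hex hσ a,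
    fun a => ⟨σ⁻¹ • h, smul_hex (inv_mem hσ) a, smul_inv_smul σ h⟩⟩

theorem steiner : IsSteinerSystem 5 6 Hex := by
  refine ⟨fun b ⟨_, _, _, h⟩ => h, fun s hs => ?_⟩
  let s0 : Finset ArrayPt := {(0, 0), (0, 1), (0, 2), (1, 0), (1, 1)}
  obtain ⟨τ, hτ⟩ := Equiv.Perm.exists_map_finset_eq s0 s (hs ▸ by decide)
  obtain ⟨⟨σ, hσ⟩, e⟩ := CF.Small.exists_smul_of_multi multi5 (s := s0) (by decide) τ
  obtain rfl : σ • s0 = s := by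
    rw [← hτ, map_eq_image, smul_finset_def]; exact image_congr e
  obtain ⟨t, h1, h2, h3⟩ := (by decide +kernel : ∃ t, (ternarySupport (cw t)).card = 6 ∧
    s0 ⊆ ternarySupport (cw t) ∧ ∀ u, (ternarySupport (cw u)).card = 6 → s0 ⊆ ternarySupport (cw u) →
      ternarySupport (cw u) = ternarySupport (cw t))
  refine ⟨σ • ternarySupport (cw t), ⟨smul_hex hσ ⟨_, cw_mem t, rfl, h1⟩, smul_finset_subset_smul_finset h2⟩,
    fun b ⟨a, c⟩ => ?_⟩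
  obtain ⟨x, hx, e1, e2⟩ := smul_hex (inv_mem hσ) a
  obtain ⟨u, rfl⟩ := mem_iff'.1 hx
  rw [← h3 u (e1 ▸ e2) (e1 ▸ smul_finset_subset_iff.1 c), e1, smul_inv_smul]

theorem card_aut : Nat.card (setSystemAut Hex) = 95040 := by
  obtain ⟨⟨e⟩, -⟩ := CF.Small.aut12 (by decide) steiner
  rw [← Nat.card_congr e.toEquiv, CF.Comp.Mat.card_M12]

theorem PP_eq : PP ternaryGolayCode = setSystemAut Hex := by
  refine PP_le.antisymm fun τ hτ => ?_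
  let s0 : Finset ArrayPt := {(0, 0), (0, 1), (0, 2), (1, 0), (1, 1)}
  obtain ⟨⟨σ, hσ⟩, e⟩ := CF.Small.exists_smul_of_multi multi5 (s := s0) (by decide) τ
  have := CF.Small.eq_one_of_fix (G := setSystemAut Hex) (t := 5) (fun _ => CF.Small.card_fx_lt
    (CF.Small.aut12 (by decide) steiner).2 (by rw [card_aut]; decide))
    (s := s0) (by decide) (g := ⟨σ⁻¹ * τ, mul_mem (inv_mem (PP_le hσ)) hτ⟩) fun w hw =>
      show σ⁻¹ (τ w) = w by rw [← e w hw]; exact σ.symm_apply_apply w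
  rwa [← inv_mul_eq_one.1 (congrArg Subtype.val this)]

theorem card_diag : Nat.card {c : ArrayPt → Z3ˣ // Pres ternaryGolayCode 1 c} = 2 := by
  refine Nat.card_eq_two_iff.2 ⟨⟨1, fun x hx => ?_⟩, ⟨-1, fun x hx => ?_⟩, fun e => ?_,
    Set.eq_univ_of_forall fun c => (diag c.2).imp (fun h => Subtype.ext (funext h))
      fun h => Subtype.ext (funext h)⟩
  · convert hx; ext; simp [monomialMap, Equiv.Perm.one_def]
  · convert neg_mem hx; ext; simp [monomialMap, Equiv.Perm.one_def]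
  · exact absurd (congrArg (fun c => c.1 (0, 0)) e) (by decide)

end CF.Sw5
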