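import Cfsg.Agent.Sw5.Mono

/-! The hexacode. -/

set_option autoImplicit false
set_option maxRecDepth 100000
set_option synthInstance.maxSize 2000
set_option linter.unusedSectionVars false

namespace CF.Sw5

open Cfsg Finset

/-- a model of the field of order four -/
abbrev K4 := QuadraticAlgebra (ZMod 2) 1 1

instance fintypeK4 : Fintype K4 := Fintype.ofEquiv _ (QuadraticAlgebra.equivProd 1 1).symm

def w4 : K4 := ⟨0, 1⟩

variable {F : Type*} [Field F] [Fintype F] {ω : F}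

theorem exists_K4 (hF : Fintype.card F = 4) (hω : ω ^ 2 + ω + 1 = 0) : ∃ φ : K4 ≃+* F, φ w4 = ω := by
  have h2 : (2 : F) = 0 := by
    have h : ((4 : ℕ) : F) = 0 := hF ▸ FiniteField.cast_card_eq_zero F
    exact pow_eq_zero_iff (two_ne_zero) |>.1 (by rw [← h]; norm_num)
  have : CharP F 2 := CharTwo.of_one_ne_zero_of_two_eq_zero one_ne_zero h2
  let := ZMod.algebra F 2
  let ψ : K4 →ₐ[ZMod 2] F := QuadraticAlgebra.lift ⟨ω, by
    simp only [one_smul]; linear_combination hω - (ω + 1) * h2⟩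
  refine ⟨RingEquiv.ofBijective ψ ((Fintype.bijective_iff_injective_and_card _).2
    ⟨(injective_iff_map_eq_zero ψ).2 fun z hz => ?_, hF ▸ by decide⟩), by simp [ψ, w4]⟩
  by_contra h
  obtain ⟨y, hy⟩ := (by decide : ∀ z : K4, z ≠ 0 → ∃ y, z * y = 1) z h
  simpa [hz] using congrArg ψ hy

/-- code word with given information symbols -/
def hw (t : K4 × K4 × K4) : Fin 6 → K4 :=
  ![t.1, t.2.1, t.2.2, t.1 + t.2.1 + t.2.2, w4 ^ 2 * t.1 + w4 * t.2.1 + t.2.2, w4 * t.1 + w4 ^ 2 * t.2.1 + t.2.2]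

variable {φ : K4 ≃+* F} (hφ : φ w4 = ω)
include hφ

theorem mem_hex {y : Fin 6 → K4} : (fun i => φ (y i)) ∈ hexacode F ω ↔ ∀ i, y i = hw (y 0, y 1, y 2) i := by
  have k : (fun i => φ (y i)) ∈ hexacode F ω ↔ ∃ a b c : K4, ∀ i, y i =
      a * ![w4, w4 ^ 2, w4 ^ 2, w4, w4 ^ 2, w4] i + (b * ![w4 ^ 2, w4, w4, w4 ^ 2, w4 ^ 2, w4] i +
      c * ![w4 ^ 2, w4, w4 ^ 2, w4, w4, w4 ^ 2] i) := by
    simp only [hexacode, Submodule.mem_span_insert, Submodule.mem_span_singleton,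
      φ.surjective.exists, funext_iff, ← hφ]
    refine exists_congr fun a => ⟨?_, ?_⟩
    · rintro ⟨_, ⟨b, z, ⟨c, h1⟩, h2⟩, h3⟩
      refine ⟨b, c, fun i => φ.injective ?_⟩
      rw [h3, Pi.add_apply, h2, Pi.add_apply, ← h1]
      fin_cases i <;> simp
    · rintro ⟨b, c, h⟩
      refine ⟨_, ⟨b, _, ⟨c, fun _ => rfl⟩, fun _ => rfl⟩, fun i => ?_⟩
      rw [h]
      fin_cases i <;> simp
  rw [k]
  refine ⟨fun ⟨a, b, c, h⟩ => ?_, fun h => ?_⟩
  · rw [funext h]; clear h k; revert a b c; decide +kernel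
  · rw [funext h]; generalize (y 0, y 1, y 2) = t; clear h k; revert t; decide +kernel

theorem mem_hex' {x : Fin 6 → F} : x ∈ hexacode F ω ↔ ∃ t, (fun i => φ (hw t i)) = x := by
  refine ⟨fun h => ⟨(φ.symm (x 0), φ.symm (x 1), φ.symm (x 2)), funext fun i => ?_⟩, fun ⟨t, e⟩ => e ▸ (mem_hex hφ).2 fun _ => rfl⟩
  rw [← (mem_hex hφ (y := fun i => φ.symm (x i))).1 (by simpa using h), φ.apply_symm_apply]

omit hφ [Fintype F] in
theorem hw_inj : Function.Injective fun t i => φ (hw t i) := fun _ _ e =>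
  Prod.ext (φ.injective (congrFun e 0)) (Prod.ext (φ.injective (congrFun e 1)) (φ.injective (congrFun e 2)))

theorem ncard_hex [DecidableEq F] (n : ℕ) : {x | x ∈ hexacode F ω ∧ (univ.filter fun i => x i ≠ 0).card = n}.ncard =
    (univ.filter fun t => (univ.filter fun i => hw t i ≠ 0).card = n).card := by
  rw [← Set.ncard_coe_finset, ← Set.ncard_image_of_injective _ (hw_inj (φ := φ))]
  congr 1; ext x
  simp only [mem_hex' hφ, Set.mem_ofPred_eq, coe_filter, mem_univ, true_and, Set.mem_image]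
  exact ⟨fun ⟨⟨t, e⟩, h⟩ => ⟨t, by simpa [← e] using h, e⟩, fun ⟨t, h, e⟩ => ⟨⟨t, e⟩, by simpa [← e] using h⟩⟩

theorem pres_hex {σ : Equiv.Perm (Fin 6)} {c : Fin 6 → Fˣ} {k : Fin 6 → K4} (h : ∀ i, (c i : F) = φ (k i)) :
    Pres (hexacode F ω) σ c ↔ ∀ t i, k i * hw t (σ.symm i) =
      hw (k 0 * hw t (σ.symm 0), k 1 * hw t (σ.symm 1), k 2 * hw t (σ.symm 2)) i := by
  have e : ∀ t, monomialMap σ c (fun i => φ (hw t i)) = fun i => φ (k i * hw t (σ.symm i)) := fun t => by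
    ext; simp [monomialMap, h]
  refine ⟨fun H t => (mem_hex hφ).1 (e t ▸ H _ ((mem_hex' hφ).2 ⟨t, rfl⟩)), fun H x hx => ?_⟩
  obtain ⟨t, rfl⟩ := (mem_hex' hφ).1 hx
  exact e t ▸ (mem_hex hφ).2 (H t)

theorem mem_PP {σ : Equiv.Perm (Fin 6)} (k : Fin 6 → K4) (h : (∀ i, k i ≠ 0) ∧ ∀ t i, k i * hw t (σ.symm i) =
      hw (k 0 * hw t (σ.symm 0), k 1 * hw t (σ.symm 1), k 2 * hw t (σ.symm 2)) i) :
    σ ∈ PP (hexacode F ω) :=
  ⟨fun i => Units.mk0 _ ((map_ne_zero_iff φ φ.injective).2 (h.1 i)), (pres_hex hφ fun _ => rfl).2 h.2⟩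

theorem of_pres {σ : Equiv.Perm (Fin 6)} {c : Fin 6 → Fˣ} (h : Pres (hexacode F ω) σ c) :
    ∃ a b d e f g : K4, (∀ i, (c i : F) = φ (![a, b, d, e, f, g] i)) ∧ (∀ i, ![a, b, d, e, f, g] i ≠ 0) ∧
      ∀ t ∈ [(1, 0, 0), (0, 1, 0), (0, 0, 1)], ∀ i, ![a, b, d, e, f, g] i * hw t (σ.symm i) =
        hw (a * hw t (σ.symm 0), b * hw t (σ.symm 1), d * hw t (σ.symm 2)) i := by
  have e : ∀ i, (c i : F) = φ (![φ.symm (c 0), φ.symm (c 1), φ.symm (c 2), φ.symm (c 3), φ.symm (c 4),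
    φ.symm (c 5)] i) := fun i => by fin_cases i <;> simp
  exact ⟨_, _, _, _, _, _, e, fun i q => (c i).ne_zero (by rw [e, q, map_zero]),
    fun t _ => (pres_hex hφ e).1 h t⟩

theorem hex_diag {c : Fin 6 → Fˣ} (h : Pres (hexacode F ω) 1 c) (i j : Fin 6) : c i = c j := by
  obtain ⟨a, b, d, e, f, g, h1, h2, h3⟩ := of_pres hφ h
  rw [Units.ext_iff, h1, h1]
  clear h1; congr 1; revert a b d e f g i j; decide +kernel

theorem PP_hex : PP (hexacode F ω) = alternatingGroup (Fin 6) := by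
  let a : Equiv.Perm (Fin 6) := ⟨![2, 0, 5, 4, 3, 1], ![1, 5, 0, 4, 3, 2], by decide, by decide⟩
  let b : Equiv.Perm (Fin 6) := ⟨![1, 3, 0, 5, 4, 2], ![2, 0, 5, 1, 4, 3], by decide, by decide⟩
  have ha : a ∈ PP (hexacode F ω) := mem_PP hφ ![1, 1, 1, 1, w4, w4 ^ 2] (by decide +kernel)
  have hb : b ∈ PP (hexacode F ω) := mem_PP hφ ![1, w4, 1, w4 ^ 2, w4, w4 ^ 2] (by decide +kernel)
  have le : alternatingGroup (Fin 6) ≤ PP (hexacode F ω) := by
    refine IsMultiplyPretransitive.alternatingGroup_le (α := Fin 6) _ ?_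
    rw [show Nat.card (Fin 6) - 2 = 4 by simp]
    refine isMulti_of_base (b := Fin.ofNat 6) fun k hk x hx => ?_
    obtain ⟨w, -, e⟩ := (by decide +kernel : ∀ k < 4, ∀ x, (∀ i < k, x ≠ Fin.ofNat 6 i) →
      ∃ w ∈ [[], [1], [0], [0, 1], [0, 0], [1, 1], [1, 0], [0, 1, 1], [0, 1, 0, 1], [1, 1, 0, 0], [1, 0, 1, 0],
        [1, 0, 0, 1], [0, 0, 1, 1, 1], [0, 0, 0, 1, 0, 0], [0, 0, 1, 0, 0, 1, 1]],
      (∀ i < k, wd a b w (Fin.ofNat 6 i) = Fin.ofNat 6 i) ∧ wd a b w (Fin.ofNat 6 k) = x) k hk x hx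
    exact ⟨_, wd_mem ha hb w, e⟩
  refine le_antisymm (fun σ hσ => by_contra fun q => ?_) le
  have : σ * Equiv.swap 0 1 ∈ alternatingGroup (Fin 6) := by
    rw [Equiv.Perm.mem_alternatingGroup] at q ⊢
    simp [(Int.units_eq_one_or _).resolve_left q]
  obtain ⟨c, hc⟩ := (mul_mem_cancel_left hσ).1 (le this)
  obtain ⟨a, b, d, e, f, g, -, h2, h3⟩ := of_pres hφ hc
  revert a b d e f g; decide +kernel

theorem card_hex_diag (hF : Fintype.card F = 4) : Nat.card {c : Fin 6 → Fˣ // Pres (hexacode F ω) 1 c} = 3 := by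
  classical
  rw [← Nat.card_eq_of_bijective (fun u : Fˣ => (⟨fun _ => u, fun x hx => Submodule.smul_mem _ (u : F) hx⟩ :
    {c : Fin 6 → Fˣ // Pres (hexacode F ω) 1 c})) ⟨fun _ _ e => congrArg (fun c => c.1 0) e,
      fun c => ⟨c.1 0, Subtype.ext (funext fun i => hex_diag hφ c.2 0 i)⟩⟩, Nat.card_eq_fintype_card,
    Fintype.card_units, hF]

end CF.Sw5
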