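import Cfsg.Prelude.Def_SporadicCombinatorics

/-! Monomial automorphisms of a linear code. -/

set_option autoImplicit false

namespace CF.Sw5

open Cfsg

theorem multi_of_base {α : Type*} {H : Subgroup (Equiv.Perm α)} {b : ℕ → α} {n : ℕ}
    (h : ∀ k < n, ∀ x, (∀ i < k, x ≠ b i) → ∃ g ∈ H, (∀ i < k, g (b i) = b i) ∧ g (b k) = x) :
    ∀ y : Fin n → α, Function.Injective y → ∃ g ∈ H, ∀ i : Fin n, g (b i) = y i := by
  induction n with
  | zero => exact fun _ _ => ⟨1, one_mem _, fun i => i.elim0⟩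
  | succ n ih =>
    intro y hy
    obtain ⟨g, hg, e⟩ := ih (fun k hk => h k (by omega)) (fun i => y i.castSucc)
      (hy.comp (Fin.castSucc_injective n))
    obtain ⟨a, ha, e1, e2⟩ := h n (by omega) (g⁻¹ (y (Fin.last n))) fun i hi q => by
      rw [Equiv.Perm.inv_eq_iff_eq, e ⟨i, hi⟩] at q
      exact absurd (congrArg Fin.val (hy q)) (by simp; omega)
    refine ⟨g * a, mul_mem hg ha, fun i => ?_⟩
    induction i using Fin.lastCases with
    | last => simp [e2]
    | cast i => simpa [e1 i i.2] using e i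

theorem isMulti_of_base {α : Type*} {H : Subgroup (Equiv.Perm α)} {b : ℕ → α} {n : ℕ}
    (h : ∀ k < n, ∀ x, (∀ i < k, x ≠ b i) → ∃ g ∈ H, (∀ i < k, g (b i) = b i) ∧ g (b k) = x) :
    MulAction.IsMultiplyPretransitive H α n := by
  refine MulAction.isMultiplyPretransitive_iff.2 fun x y => ?_
  obtain ⟨g, hg, e⟩ := multi_of_base h x x.injective
  obtain ⟨g', hg', e'⟩ := multi_of_base h y y.injective
  refine ⟨⟨g' * g⁻¹, mul_mem hg' (inv_mem hg)⟩, Function.Embedding.ext fun i => ?_⟩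
  show g' (g⁻¹ (x i)) = y i
  rw [← e, ← e']; simp

/-- product of a word in two generators -/
def wd {G : Type*} [Group G] (a b : G) : List ℕ → G
  | [] => 1
  | x :: w => (if x = 0 then a else b) * wd a b w

theorem wd_mem {G : Type*} [Group G] {a b : G} {H : Subgroup G} (ha : a ∈ H) (hb : b ∈ H) :
    ∀ w, wd a b w ∈ H
  | [] => one_mem _
  | x :: w => mul_mem (by split <;> assumption) (wd_mem ha hb w)

variable {α F : Type*} [Field F] (C : Submodule F (α → F))

/-- the monomial map preserves the code -/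
abbrev Pres (σ : Equiv.Perm α) (c : α → Fˣ) : Prop := ∀ x ∈ C, monomialMap σ c x ∈ C

theorem mono_mul (σ τ : Equiv.Perm α) (c d : α → Fˣ) (x : α → F) :
    monomialMap σ c (monomialMap τ d x) = monomialMap (σ * τ) (fun i => c i * d (σ.symm i)) x := by
  ext i; simp [monomialMap, mul_assoc, Equiv.Perm.mul_def]

theorem mono_inv (σ : Equiv.Perm α) (c : α → Fˣ) (x : α → F) :
    monomialMap σ⁻¹ (fun i => (c (σ i))⁻¹) (monomialMap σ c x) = x := by
  ext i; simp [monomialMap, Equiv.Perm.inv_def]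

variable {C} [Finite α] [Finite F]

theorem Pres.inv {σ : Equiv.Perm α} {c : α → Fˣ} (h : Pres C σ c) : Pres C σ⁻¹ fun i => (c (σ i))⁻¹ := by
  intro x hx
  obtain ⟨y, hy, rfl⟩ := ((Set.toFinite (C : Set (α → F))).injOn_iff_bijOn_of_mapsTo h).1
    (Function.LeftInverse.injective (mono_inv σ c)).injOn |>.surjOn hx
  rwa [mono_inv]

variable (C) in
/-- permutation parts of the monomial automorphisms -/
def PP : Subgroup (Equiv.Perm α) where
  carrier := {σ | ∃ c, Pres C σ c}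
  one_mem' := ⟨1, fun x hx => by convert hx; ext i; simp [monomialMap, Equiv.Perm.one_def]⟩
  mul_mem' := fun ⟨_, h⟩ ⟨_, h'⟩ => ⟨_, fun x hx => mono_mul _ _ _ _ x ▸ h _ (h' x hx)⟩
  inv_mem' := fun ⟨_, h⟩ => ⟨_, h.inv⟩

theorem card_pres : Nat.card {f : Equiv.Perm α × (α → Fˣ) // Pres C f.1 f.2} =
    Nat.card (PP C) * Nat.card {c : α → Fˣ // Pres C 1 c} := by
  rw [← Nat.card_prod]
  symm
  refine Nat.card_eq_of_bijective (fun p => ⟨(p.1.1, fun i => p.2.1 i * p.1.2.choose i), fun x hx => ?_⟩)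
    ⟨?_, ?_⟩
  · have := p.2.2 _ (p.1.2.choose_spec x hx)
    rwa [mono_mul, one_mul] at this
  · rintro ⟨⟨σ, hσ⟩, c, hc⟩ ⟨⟨τ, hτ⟩, d, hd⟩ e
    obtain rfl : σ = τ := congrArg (fun f => f.1.1) e
    obtain rfl : c = d := funext fun i => mul_right_cancel (congrArg (fun f => f.1.2 i) e)
    rfl
  · rintro ⟨⟨σ, c⟩, h⟩
    have hσ : σ ∈ PP C := ⟨c, h⟩
    refine ⟨(⟨σ, hσ⟩, ⟨fun i => c i * (hσ.choose i)⁻¹, fun x hx => ?_⟩), by simp⟩
    have := h _ (hσ.choose_spec.inv x hx)
    rw [mono_mul, mul_inv_cancel] at this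
    simpa using this

end CF.Sw5
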